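import Mathlib
import Cfsg.Agent.Lib.Block.Cover3
import Cfsg.Agent.Lib.Blk86.Nil
import Cfsg.Agent.Lib.Blk86.Dict

/-!
A double coset of a Sylow subgroup whose span embeds into a block algebra, and the comparison of
the dimension of a block algebra with the sum of the squares of the degrees.
-/

set_option autoImplicit false
set_option linter.style.haveILetI false
set_option linter.unusedSectionVars false
attribute [local irreducible] H33.instFieldF

namespace H86

open Cfsg H33 MonoidAlgebra Function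

section DC

variable {F G : Type*} [Field F] [Group G] {S Q : Subgroup G} {x : G} {b : F[G]}

/-- the double coset `S x S` -/
def DC (S : Subgroup G) (x : G) : Set G := {g | ∃ s ∈ S, ∃ t ∈ S, g = s * x * t}

theorem self_mem_DC (S : Subgroup G) (x : G) : x ∈ DC S x := ⟨1, S.one_mem, 1, S.one_mem, by simp⟩

theorem mul_mul_mem_DC {s t g : G} (hs : s ∈ S) (ht : t ∈ S) : s * g * t ∈ DC S x ↔ g ∈ DC S x := by
  constructor
  · rintro ⟨a, ha, c, hc, h⟩
    refine ⟨s⁻¹ * a, S.mul_mem (S.inv_mem hs) ha, c * t⁻¹, S.mul_mem hc (S.inv_mem ht), ?_⟩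
    calc g = s⁻¹ * (s * g * t) * t⁻¹ := by group
      _ = _ := by rw [h]; group
  · rintro ⟨a, ha, c, hc, rfl⟩
    exact ⟨s * a, S.mul_mem hs ha, c * t, S.mul_mem hc ht, by group⟩

theorem coeff_single_mul_mul (s t g : G) (z : F[G]) :
    (single s 1 * z * single t 1 : F[G]).coeff g = z.coeff (s⁻¹ * g * t⁻¹) := by
  simp [MonoidAlgebra.coeff_single_mul_apply, MonoidAlgebra.coeff_mul_single_apply, mul_assoc]

/-- elements supported on the double coset -/
def DS (F : Type*) [Field F] (S : Subgroup G) (x : G) : Submodule F F[G] where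
  carrier := {z | ∀ g, g ∉ DC S x → z.coeff g = 0}
  add_mem' {a c} ha hc g hg := by simp [ha g hg, hc g hg]
  zero_mem' g _ := rfl
  smul_mem' c a ha g hg := by simp [ha g hg]

theorem mul_mul_mem_DS {s t : G} (hs : s ∈ S) (ht : t ∈ S) {z : F[G]} (hz : z ∈ DS F S x) :
    single s 1 * z * single t 1 ∈ DS F S x := fun g hg => by
  rw [coeff_single_mul_mul]
  exact hz _ fun h => hg ((mul_mul_mem_DC (S.inv_mem hs) (S.inv_mem ht)).1 h)

theorem single_mem_DS {g : G} (hg : g ∈ DC S x) : single g (1 : F) ∈ DS F S x := fun h hh => by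
  classical
  rw [coeff_single', if_neg]
  rintro rfl; exact hh hg

variable [Finite G]

theorem card_mul_card_le (S : Subgroup G) (x : G) :
    Nat.card S * Nat.card S ≤ Nat.card (DC S x) * Nat.card (S ⊓ cs x⁻¹ S : Subgroup G) := by
  letI : MulAction (S × S) G :=
    { smul := fun a g => a.1 * g * (a.2 : G)⁻¹
      one_smul := fun g => by change ((1 : S) : G) * g * ((1 : S) : G)⁻¹ = g; simp
      mul_smul := fun a c g => by
        change ((a.1 * c.1 : S) : G) * g * ((a.2 * c.2 : S) : G)⁻¹ =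
          a.1 * (c.1 * g * (c.2 : G)⁻¹) * (a.2 : G)⁻¹
        simp [mul_assoc] }
  have h1 := Nat.card_congr (MulAction.orbitProdStabilizerEquivGroup (S × S) x)
  rw [Nat.card_prod, Nat.card_prod] at h1
  rw [← h1]
  refine Nat.mul_le_mul (Nat.card_le_card_of_injective (fun g => ⟨g.1, ?_⟩) ?_)
    (Nat.card_le_card_of_injective (fun a => ⟨a.1.2, a.1.2.2, ?_⟩) ?_)
  · obtain ⟨g, a, rfl⟩ := g
    exact ⟨a.1, a.1.2, (a.2 : G)⁻¹, S.inv_mem a.2.2, rfl⟩
  · intro g h e
    exact Subtype.ext (Subtype.mk.inj e)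
  · have h : (a.1.1 : G) * x * (a.1.2 : G)⁻¹ = x := a.2
    refine mem_cs.2 ?_
    have : x⁻¹⁻¹ * a.1.2 * x⁻¹ = a.1.1 := by
      rw [inv_inv]; nth_rewrite 1 [← h]; group
    rw [this]; exact a.1.1.2
  · intro a c e
    have h2 : (a.1.2 : G) = c.1.2 := Subtype.mk.inj e
    have ha : (a.1.1 : G) * x * (a.1.2 : G)⁻¹ = x := a.2
    have hc : (c.1.1 : G) * x * (c.1.2 : G)⁻¹ = x := c.2
    have h3 := ha.trans hc.symm
    rw [h2, mul_left_inj, mul_left_inj] at h3
    exact Subtype.ext (Prod.ext (Subtype.ext h3) (Subtype.ext h2))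

theorem eq_smul_of_fixed {z : F[G]} (hz : z ∈ DS F S x)
    (h : ∀ s ∈ S, ∀ t ∈ S, single s 1 * z * single t 1 = z) [DecidablePred (· ∈ DC S x)] :
    z = z.coeff x • ofFun fun g => if g ∈ DC S x then (1 : F) else 0 := by
  refine alg_ext fun g => ?_
  rw [coeff_smul_apply', coeff_ofFun]
  split_ifs with hg
  · obtain ⟨s, hs, t, ht, rfl⟩ := hg
    rw [← h s hs t ht, coeff_single_mul_mul, h s hs t ht]
    simp [mul_assoc]
  · rw [hz g hg, mul_zero]

variable {p : ℕ} [Fact p.Prime] [CharP F p]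

theorem exists_fixed_two (hS : IsPGroup p S) (K : Submodule F F[G])
    (hK : ∀ s ∈ S, ∀ t ∈ S, ∀ z ∈ K, single s 1 * z * single t 1 ∈ K) {v : F[G]} (hv : v ∈ K)
    (h0 : v ≠ 0) : ∃ w ∈ K, w ≠ 0 ∧ ∀ s ∈ S, ∀ t ∈ S, single s 1 * w * single t 1 = w := by
  letI : DistribMulAction (S × S) K :=
    { smul := fun a z => ⟨single (a.1 : G) 1 * (z : F[G]) * single (a.2 : G)⁻¹ 1,
        hK _ a.1.2 _ (S.inv_mem a.2.2) _ z.2⟩
      one_smul := fun z => Subtype.ext <| by
        change single ((1 : S) : G) 1 * (z : F[G]) * single ((1 : S) : G)⁻¹ 1 = (z : F[G])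
        simp [← one_def]
      mul_smul := fun a c z => Subtype.ext <| by
        change single ((a.1 * c.1 : S) : G) 1 * (z : F[G]) * single ((a.2 * c.2 : S) : G)⁻¹ 1 =
          single (a.1 : G) 1 * (single (c.1 : G) 1 * (z : F[G]) * single (c.2 : G)⁻¹ 1) *
            single (a.2 : G)⁻¹ 1
        simp only [← mul_assoc, single_mul_single, mul_one, Subgroup.coe_mul]
        rw [mul_assoc _ (single _ _) (single _ _), single_mul_single, mul_inv_rev, mul_one]
      smul_zero := fun a => Subtype.ext <| by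
        change single (a.1 : G) 1 * (0 : F[G]) * single (a.2 : G)⁻¹ 1 = 0
        simp
      smul_add := fun a y z => Subtype.ext <| by
        change single (a.1 : G) 1 * ((y : F[G]) + (z : F[G])) * single (a.2 : G)⁻¹ 1 =
          single (a.1 : G) 1 * (y : F[G]) * single (a.2 : G)⁻¹ 1 +
            single (a.1 : G) 1 * (z : F[G]) * single (a.2 : G)⁻¹ 1
        rw [mul_add, add_mul] }
  have hP : IsPGroup p (S × S) := fun a => by
    obtain ⟨k, hk⟩ := hS a.1
    obtain ⟨l, hl⟩ := hS a.2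
    refine ⟨k + l, Prod.ext ?_ ?_⟩
    · simp [pow_add, pow_mul, hk]
    · simp [pow_add, mul_comm (p ^ k), pow_mul, hl]
  obtain ⟨w, hw, h⟩ := H34.exists_fixed_ne_zero hP (V := K) (fun v => by
    rw [← Nat.cast_smul_eq_nsmul F, CharP.cast_eq_zero, zero_smul]) ⟨v, hv⟩
    fun h => h0 (congrArg Subtype.val h)
  refine ⟨w, w.2, fun h => hw (Subtype.ext h), fun s hs t ht => ?_⟩
  have := congrArg Subtype.val (h (⟨s, hs⟩, ⟨t⁻¹, S.inv_mem ht⟩))
  change single s 1 * (w : F[G]) * single t⁻¹⁻¹ 1 = (w : F[G]) at this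
  rwa [inv_inv] at this

theorem exists_dc (hS : IsPGroup p S) (hb : b * b = b) (h0 : b ≠ 0) (hi : IsCent b) :
    ∃ x, b.coeff x ≠ 0 ∧ x ∈ Cen (S ⊓ cs x⁻¹ S) ∧ ∀ z ∈ DS F S x, z * b = 0 → z = 0 := by
  classical
  haveI := Fintype.ofFinite G
  have hiS : Inv S b := (isCent_iff_inv.1 hi).anti le_top
  set σ : F[G] := ofFun fun g => if g ∈ S then 1 else 0 with hσ
  have hσl : ∀ s ∈ S, single s 1 * σ = σ := fun s hs => alg_ext fun g => by
    simp [MonoidAlgebra.coeff_single_mul_apply, hσ, coeff_ofFun, S.mul_mem_cancel_left, hs]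
  have hσr : ∀ s ∈ S, σ * single s 1 = σ := fun s hs => alg_ext fun g => by
    simp [MonoidAlgebra.coeff_mul_single_apply, hσ, coeff_ofFun, S.mul_mem_cancel_right, hs]
  have h1 : σ * b ≠ 0 := by
    obtain ⟨y, hy⟩ := H35.exists_coset_sum_ne_zero hS hb h0 hiS
    intro h
    refine hy ?_
    have := congrArg (fun z => MonoidAlgebra.coeff z y) ((hi.comm σ).symm.trans h)
    simp only [H33.coeff_mul_sum', hσ, coeff_ofFun, coeff_zero_apply, mul_ite, mul_one,
      mul_zero] at this
    rw [← Finset.sum_filter, Finset.sum_subtype (p := (· ∈ S)) _ (fun g => by simp)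
      fun g => b.coeff (y * g⁻¹)] at this
    rw [← this]
    exact Fintype.sum_equiv (Equiv.inv S) _ _ fun r => by simp
  obtain ⟨x, hx, h2⟩ : ∃ x, b.coeff x ≠ 0 ∧ σ * osum F S x * b ≠ 0 := by
    by_contra h
    push Not at h
    have := hiS.induction (LinearMap.ker ((LinearMap.mulRight F b).comp (LinearMap.mulLeft F σ)))
      fun x hx => h x hx
    exact h1 (by simpa [mul_assoc, hb] using this)
  have h3 : σ * osum F S x ∈ DS F S x := fun g hg => by
    rw [H33.coeff_mul_sum']
    refine Finset.sum_eq_zero fun h _ => ?_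
    by_contra hne
    obtain ⟨t, ht, rfl⟩ := exists_of_coeff_osum_ne_zero (right_ne_zero_of_mul hne)
    have h4 := left_ne_zero_of_mul hne
    rw [hσ, coeff_ofFun] at h4
    refine hg ⟨_, S.mul_mem (by simpa using h4 : g * (t * x * t⁻¹)⁻¹ ∈ S) ht, t⁻¹, S.inv_mem ht, ?_⟩
    group
  have h4 := eq_smul_of_fixed h3 fun s hs t ht => by
    rw [← mul_assoc, hσl s hs, mul_assoc, ← cj_eq_iff_comm.1 ((inv_osum S x).cj_eq ht), ← mul_assoc,
      hσr t ht]
  rw [h4, smul_mul_assoc] at h2
  refine ⟨x, hx, ?_, fun z hz hzb => ?_⟩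
  · have h5 := left_ne_zero_of_smul h2
    have hT : ∀ u, u ∈ S ⊓ cs x⁻¹ S ↔ u ∈ S ∧ x * u * x⁻¹ ∈ S := fun u => by
      rw [Subgroup.mem_inf, mem_cs, inv_inv]
    rw [H33.coeff_mul_sum', sum_eq_sum_Cen (P := S ⊓ cs x⁻¹ S) (hS.to_le inf_le_left)
      (fun v => by rw [nsmul_eq_mul, CharP.cast_eq_zero, zero_mul])] at h5
    · obtain ⟨g, hg, hne⟩ := Finset.exists_ne_zero_of_sum_ne_zero h5
      obtain ⟨t, ht, rfl⟩ := exists_of_coeff_osum_ne_zero (right_ne_zero_of_mul hne)
      have h6 := left_ne_zero_of_mul hne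
      rw [hσ, coeff_ofFun] at h6
      have h7 : x * (t * x * t⁻¹)⁻¹ ∈ S := by simpa using h6
      have h8 : t⁻¹ ∈ S ⊓ cs x⁻¹ S := Subgroup.inv_mem _ ((hT t).2 ⟨ht, by
        have := S.mul_mem h7 ht
        convert this using 1; group⟩)
      have h9 := (Finset.mem_filter.1 hg).2
      have := mem_Cen'.1 h9 _ h8
      rw [← this] at h9
      convert h9 using 1; group
    · intro u hu g
      obtain ⟨hu1, hu2⟩ := (hT u).1 hu
      rw [inv_osum S x u hu1 g]
      congr 1
      simp only [hσ, coeff_ofFun]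
      refine if_congr ?_ rfl rfl
      have : x * (u * g * u⁻¹)⁻¹ = x * u * x⁻¹ * (x * g⁻¹) * u⁻¹ := by group
      rw [this, S.mul_mem_cancel_right (S.inv_mem hu1), S.mul_mem_cancel_left hu2]
  · by_contra hz0
    obtain ⟨w, hw, hw0, hfix⟩ := exists_fixed_two hS
      (DS F S x ⊓ LinearMap.ker (LinearMap.mulRight F b)) (fun s hs t ht y hy =>
        ⟨mul_mul_mem_DS hs ht hy.1, by
          have : y * b = 0 := hy.2
          change single s 1 * y * single t 1 * b = 0
          rw [mul_assoc, hi.comm, ← mul_assoc, mul_assoc _ y, this, mul_zero, zero_mul]⟩)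
      (v := z) ⟨hz, hzb⟩ hz0
    have h5 : w * b = 0 := hw.2
    have h6 := eq_smul_of_fixed hw.1 hfix
    rw [h6, smul_mul_assoc, smul_eq_zero] at h5
    rcases h5 with h5 | h5
    · exact hw0 (by rw [h6, h5, zero_smul])
    · exact right_ne_zero_of_smul h2 h5

theorem linearIndependent_DC (hinj : ∀ z ∈ DS F S x, z * b = 0 → z = 0) :
    LinearIndependent F fun g : DC S x => single (g : G) (1 : F) * b := by
  classical
  haveI := Fintype.ofFinite (DC S x)
  rw [Fintype.linearIndependent_iff]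
  intro c hc g
  have := hinj (∑ g : DC S x, c g • single (g : G) 1)
    (Submodule.sum_mem _ fun g _ => Submodule.smul_mem _ _ (single_mem_DS g.2))
    (by simpa only [Finset.sum_mul, smul_mul_assoc] using hc)
  have h := congrArg (fun z => MonoidAlgebra.coeff z (g : G)) this
  simp only [coeff_sum_apply, coeff_smul_apply', coeff_single', coeff_zero_apply, mul_ite, mul_one,
    mul_zero, Subtype.val_inj] at h
  simpa using h

theorem exists_act_of_span (hi : IsCent b) (hx : x ∈ Cen (S ⊓ cs x⁻¹ S))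
    (hinj : ∀ z ∈ DS F S x, z * b = 0 → z = 0) (hQS : Q ≤ S) (hQ : IsPGroup p Q)
    (hne : br Q b ≠ 0) {g : G} (hg : g ∈ Nor Q) {z : F[G]} (hz : z ∈ DS F S x)
    (hzb : z * b = single g 1 * b) : ∃ y ∈ S, Act Q g y := by
  have hinv : Inv Q (z * single g⁻¹ 1) := inv_iff_cj.2 fun u hu => by
    have hu' : g⁻¹ * u⁻¹ * g ∈ Q := by
      have := (mem_Nor.1 ((Nor Q).inv_mem hg) _).1 (Q.inv_mem hu)
      rwa [inv_inv] at this
    have h1 : single u 1 * z * single (g⁻¹ * u⁻¹ * g) 1 = z := by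
      refine sub_eq_zero.1 (hinj _ (Submodule.sub_mem _ (mul_mul_mem_DS (hQS hu) (hQS hu') hz) hz) ?_)
      rw [sub_mul, mul_assoc, hi.comm, ← mul_assoc, mul_assoc _ z, hzb, mul_assoc, mul_assoc,
        ← hi.comm, ← mul_assoc, ← mul_assoc, single_mul_single, single_mul_single, sub_eq_zero]
      congr 2
      · group
      · simp
    rw [cj_eq_mul]
    nth_rewrite 2 [← h1]
    simp only [mul_assoc, single_mul_single, mul_one, mul_inv_cancel]
  have h2 : z * single g⁻¹ 1 * b = b := by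
    rw [mul_assoc, hi.comm, ← mul_assoc, hzb, mul_assoc, ← hi.comm, ← mul_assoc, single_mul_single,
      mul_inv_cancel, mul_one, ← one_def, one_mul]
  have h3 := br_ne_zero_of_mul le_rfl hQ hinv ((isCent_iff_inv.1 hi).anti le_top) (h2.symm ▸ hne)
  obtain ⟨c, hc, h4⟩ := res_ne_zero_iff.1 h3
  rw [MonoidAlgebra.coeff_mul_single_apply, inv_inv, mul_one] at h4
  obtain ⟨s, hs, t, ht, h5⟩ : c * g ∈ DC S x := by
    by_contra h; exact h4 (hz _ h)
  refine ⟨s * t, S.mul_mem hs ht, fun u hu => ?_⟩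
  have h6 : g * u * g⁻¹ ∈ Q := (mem_Nor.1 hg u).1 hu
  have h7 : g * u * g⁻¹ = s * (x * (t * u * t⁻¹) * x⁻¹) * s⁻¹ := by
    have := mem_Cen.1 hc _ h6
    calc g * u * g⁻¹ = (g * u * g⁻¹ * c) * c⁻¹ := by group
      _ = (c * g) * u * (c * g)⁻¹ := by rw [this]; group
      _ = _ := by rw [h5]; group
  have h8 : t * u * t⁻¹ ∈ S ⊓ cs x⁻¹ S := by
    refine ⟨S.mul_mem (S.mul_mem ht (hQS hu)) (S.inv_mem ht), mem_cs.2 ?_⟩
    have := S.mul_mem (S.mul_mem (S.inv_mem hs) (hQS h6)) hs
    rw [h7] at this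
    convert this using 1; group
  rw [h7, ← mem_Cen.1 hx _ h8]; group

end DC

section Dim

variable {M : Ideal AlgInt} [M.IsMaximal] {G : Type*} [Group G] [Finite G]

theorem linearIndependent_of_redA {ι : Type*} [Finite ι] {z : ι → ℂ[G]} (hz : ∀ i, z i ∈ OG M G)
    (h : LinearIndependent (F M) fun i => redA M (z i)) : LinearIndependent ℂ z := by
  classical
  haveI := Fintype.ofFinite ι
  haveI := Fintype.ofFinite G
  obtain ⟨L, hL⟩ := (Finsupp.linearCombination (F M) fun i => redA M (z i)).exists_leftInverse_of_injective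
    (LinearMap.ker_eq_bot.2 h)
  choose T hT1 hT2 using fun (j : ι) (g : G) => exists_red_eq M (L (single g 1) j)
  let A : Matrix ι ι (O M) := Matrix.of fun i j => ⟨chiL (T j) (z i), chiL_mem_O (hT1 j) (hz i)⟩
  have hA : (redHom M).mapMatrix A = 1 := by
    ext i j
    change red M (chiL (T j) (z i)) = _
    rw [red_chiL (hT1 j) (hz i), chiL_apply]
    have h1 := congrArg (fun f => f (Finsupp.single i 1) j) hL
    simp only [LinearMap.comp_apply, Finsupp.linearCombination_single, one_smul,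
      LinearMap.id_apply] at h1
    rw [eq_sum_single (redA M (z i)), map_sum, Finsupp.finset_sum_apply] at h1
    rw [Matrix.one_apply, ← Finsupp.single_apply, ← h1]
    refine Finset.sum_congr rfl fun g _ => ?_
    rw [hT2, map_smul]; rfl
  have hd : ((O M).subtype.mapMatrix A).det ≠ 0 := by
    rw [← RingHom.map_det]
    refine ne_zero_of_red_ne_zero (M := M) ?_
    change redHom M A.det ≠ 0
    rw [RingHom.map_det, hA, Matrix.det_one]; exact one_ne_zero
  exact LinearIndependent.of_comp (LinearMap.pi fun j => chiL (T j))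
    (Matrix.linearIndependent_rows_of_det_ne_zero hd)

theorem finrank_range_fB (B : Set (IrrCharacter G)) :
    Module.finrank ℂ (LinearMap.range (LinearMap.mulRight ℂ (fB B))) =
      ∑ χ ∈ H84.bset B, charDegree (χ : G → ℂ) ^ 2 := by
  classical
  haveI := Fintype.ofFinite G
  have hP : LinearMap.IsProj (LinearMap.range (LinearMap.mulRight ℂ (fB B)))
      (LinearMap.mulRight ℂ (fB B)) := ⟨fun y => ⟨y, rfl⟩, by
    rintro _ ⟨y, rfl⟩; simp [mul_assoc, fB_idem]⟩
  have h := hP.trace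
  rw [LinearMap.trace_eq_matrix_trace ℂ (MonoidAlgebra.basis G ℂ), Matrix.trace] at h
  refine Nat.cast_injective (R := ℂ) ?_
  rw [← h]
  have : ∀ g : G, (LinearMap.toMatrix (MonoidAlgebra.basis G ℂ) (MonoidAlgebra.basis G ℂ)
      (LinearMap.mulRight ℂ (fB B))).diag g = blockCoeff B 1 := fun g => by
    simp only [Matrix.diag_apply, LinearMap.toMatrix_apply, MonoidAlgebra.basis_apply,
      LinearMap.mulRight_apply]
    change (single g 1 * fB B).coeff g = _
    simp [MonoidAlgebra.coeff_single_mul_apply]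
  simp only [this]
  rw [Finset.sum_const, Finset.card_univ, nsmul_eq_mul, blockCoeff, Nat.card_eq_fintype_card,
    mul_inv_cancel_left₀ (Nat.cast_ne_zero.2 Fintype.card_ne_zero), H84.finsum_mem_eq]
  push_cast
  refine Finset.sum_congr rfl fun χ _ => ?_
  rw [irr_one_eq_charDegree, map_natCast, sq]

theorem card_le_sum_sq {B : Set (IrrCharacter G)} (hB : fB B ∈ OG M G) {ι : Type*} [Finite ι]
    (v : ι → G) (h : LinearIndependent (F M) fun i => single (v i) (1 : F M) * eB M B) :
    Nat.card ι ≤ ∑ χ ∈ H84.bset B, charDegree (χ : G → ℂ) ^ 2 := by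
  haveI := Fintype.ofFinite ι
  have h1 := linearIndependent_of_redA (M := M) (z := fun i => single (v i) 1 * fB B)
    (fun i => (OG M G).mul_mem (single_one_mem_OG _) hB) (by
      simpa only [redA_mul (single_one_mem_OG _) hB, redA_single_one, eB_def] using h)
  rw [← finrank_range_fB, Nat.card_eq_fintype_card]
  let w : ι → LinearMap.range (LinearMap.mulRight ℂ (fB B)) := fun i =>
    ⟨single (v i) 1 * fB B, single (v i) 1, rfl⟩
  have h2 : LinearIndependent ℂ w := LinearIndependent.of_comp (Submodule.subtype _) h1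
  exact h2.fintype_card_le_finrank

end Dim

end H86
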